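import Cfsg.Agent.H520.IF.ExFund
import Cfsg.Agent.H100.IF.Four
import Cfsg.Agent.ClassicalGeometry.QuatPair

/-!
# S5719, orthogonal groups of dimension 9, `q` odd: involutions with `-1` space of dimension two (helper520)
-/

set_option autoImplicit false
set_option linter.unusedSectionVars false

namespace Cfsg.Agent.H520.IF

open QuadraticMap Matrix Module
open Cfsg.Agent.LieClassical.OrthCore Cfsg.Agent.LieClassical.OrthTrans Cfsg.Agent.LieClassical.OrthSimple
open Cfsg.Agent.H989.Gs.Gen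
open Cfsg.Agent.AutOrth.SemiSim (RS sg mem_RS)
open Cfsg.Agent.H112.Row2.OrthExt (QU QU_apply polar_QU)
open Cfsg.Agent.H198.IF (Neg Fix neg₂ mem_Neg mem_Fix xt xt_left xt_right)

variable {F V : Type*} [Field F] [AddCommGroup V] [Module F V] {Q : QuadraticForm F V}

/-- an element of square `-1` of `SL₂` -/
theorem exists_sq [Finite F] (h2 : (2 : F) ≠ 0) : ∃ c : SpecialLinearGroup (Fin 2) F, c * c = neg₂ F := by
  obtain ⟨x, y, hxy⟩ := Cfsg.Agent.ClassicalGeometry.QuatPair.exists_sq_add_sq_eq_neg_one h2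
  refine ⟨⟨!![x, y; y, -x], ?_⟩, ?_⟩
  · rw [Matrix.det_fin_two_of]
    linear_combination -hxy
  · apply Subtype.ext
    change (!![x, y; y, -x] : Matrix (Fin 2) (Fin 2) F) * (!![x, y; y, -x] : Matrix (Fin 2) (Fin 2) F) = -1
    ext i j
    fin_cases i <;> fin_cases j <;> simp [Matrix.mul_apply, Fin.sum_univ_two]
    · linear_combination hxy
    · ring
    · ring
    · linear_combination hxy

/-- an involution with `-1` space of dimension two -/
theorem exists_t2 [Finite F] [FiniteDimensional F V] (h2 : (2 : F) ≠ 0) (hQ : Nondeg Q) (h5 : 5 ≤ finrank F V) :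
    ∃ t : ↥(E Q), t * t = 1 ∧ finrank F (Neg t) = 2 := by
  obtain ⟨e₁, f₁, e₂, f₂, h⟩ := exists_four hQ h5
  obtain ⟨c, hc⟩ := exists_sq h2
  exact ⟨_, H100.IF.t2_mul h h2 hQ hc hc⟩

theorem neg_xt (h2 : (2 : F) ≠ 0) {z : ↥(E Q)} (hz : z * z = 1) (y : ↥(E (QU Q (Fix z)))) :
    Neg (xt h2 hz y) = (Neg y).map (Fix z).subtype := by
  ext v
  rw [mem_Neg, Submodule.mem_map]
  constructor
  · intro hv
    obtain ⟨u, w, rfl⟩ := H112.Row2.OrthExt.exists_dec (H198.IF.isCompl h2 hz) v
    rw [ap_add, xt_left, xt_right h2 hz y w.2] at hv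
    have h3 : ((ap y u + u : Fix z) : V) = (-(2 : F) • w : Neg z) := by
      have h4 : ((ap y u + u : Fix z) : V) = (ap y u : Fix z) + (u : V) := rfl
      have h5 : ((-(2 : F) • w : Neg z) : V) = -(2 : F) • (w : V) := rfl
      rw [h4, h5]
      linear_combination (norm := module) hv
    have hd := (H198.IF.isCompl h2 hz).disjoint
    rw [Submodule.disjoint_def] at hd
    have h4 := hd _ (ap y u + u : Fix z).2 (by rw [h3]; exact (-(2 : F) • w : Neg z).2)
    have h5 : (w : V) = 0 := by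
      rw [h4] at h3
      have h6 : -(2 : F) • (w : V) = 0 := h3.symm
      exact (smul_eq_zero.1 h6).resolve_left (neg_ne_zero.2 h2)
    refine ⟨u, ?_, ?_⟩
    · rw [mem_Neg]
      apply Subtype.ext
      have h6 : (ap y u : Fix z) + (u : V) = 0 := h4
      exact eq_neg_of_add_eq_zero_left h6
    · rw [h5, add_zero]
      rfl
  · rintro ⟨u, hu, rfl⟩
    rw [mem_Neg] at hu
    rw [Submodule.subtype_apply, xt_left, hu]
    rfl

/-- **involutions of `E (Q|U)` with the same `-1` space in `E Q`** -/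
theorem xt_t2 [FiniteDimensional F V] (h2 : (2 : F) ≠ 0) {z : ↥(E Q)} (hz : z * z = 1)
    {y : ↥(E (QU Q (Fix z)))} (hy : y * y = 1) :
    xt h2 hz y * xt h2 hz y = 1 ∧ finrank F (Neg (xt h2 hz y)) = finrank F (Neg y) := by
  refine ⟨by rw [← map_mul, hy, map_one], ?_⟩
  rw [neg_xt, Submodule.finrank_map_subtype_eq]

/-- two opposite Siegel groups meet trivially -/
theorem disjoint_RS {e f : V} (h : Hyp Q e f) : Disjoint (RS Q e h.left) (RS Q f h.right) := by
  rw [Subgroup.disjoint_def]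
  intro g h1 h3
  obtain ⟨w, hw, rfl⟩ := mem_RS.1 h1
  obtain ⟨w', hw', h4⟩ := mem_RS.1 h3
  have k1 : ap (sg Q e w h.left hw) e = e := by
    rw [← S_eq h.left hw, S_ap h.left hw, h.polar_left, polar_zero_of_comm hw]
    simp
  rw [h4, ← S_eq h.right hw', S_ap h.right hw', h.pair', one_smul, mul_one] at k1
  have k3 : w' = (polar Q w' e + Q w') • f := by linear_combination (norm := module) k1
  rw [h4, ← S_eq h.right hw', k3]
  exact S_self_smul _ h.right

theorem card_ge_of [Finite F] [FiniteDimensional F V] {e f : V} (h : Hyp Q e f) :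
    Nat.card F ^ (2 * (finrank F V - 2)) ≤ Nat.card ↥(E Q) := by
  have hfE : Finite ↥(E Q) := Cfsg.Agent.H786.IF.finite_E
  have h1 := H989.Fx.card_RS h
  have h3 := H989.Fx.card_RS h.symm
  have h4 : Function.Injective fun p : RS Q e h.left × RS Q f h.right => (p.1 * p.2 : ↥(E Q)) :=
    Subgroup.mul_injective_of_disjoint (disjoint_RS h)
  have h5 := Nat.card_le_card_of_injective _ h4
  rw [Nat.card_prod, h1] at h5
  have h6 : Nat.card (RS Q f h.right) = Nat.card F ^ (finrank F V - 2) := h3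
  rw [h6, ← pow_add, ← two_mul] at h5
  exact h5

/-- **a cheap lower bound for the order** -/
theorem card_ge [Finite F] [FiniteDimensional F V] (hQ : Nondeg Q) (h5 : 5 ≤ finrank F V) :
    Nat.card F ^ 6 ≤ Nat.card ↥(E Q) := by
  obtain ⟨e₁, f₁, e₂, f₂, h⟩ := exists_four hQ h5
  refine le_trans ?_ (card_ge_of h.h1)
  exact Nat.pow_le_pow_right Nat.card_pos (by omega)

theorem card_ge_four [Finite F] [FiniteDimensional F V] (hQ : Nondeg Q) (h5 : 5 ≤ finrank F V) :
    Nat.card F ^ 4 ≤ Nat.card ↥(E Q) :=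
  (Nat.pow_le_pow_right Nat.card_pos (by omega)).trans (card_ge hQ h5)

end Cfsg.Agent.H520.IF
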